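import Cfsg.Agent.H994.NX.Wie
import Cfsg.Agent.H586.NX.Fix
import Cfsg.Agent.H921.NX.Tw
import Cfsg.Agent.H473.NX.Kill
import Cfsg.Agent.S0497

/-!
# S4816, layer (B), `p = 3`, box K3 (helper473): group theory and counting in `F₂⁶`
-/

set_option autoImplicit false
set_option linter.unusedSectionVars false

namespace Cfsg.Agent.H473.RIM

open Cfsg.Agent.H586.NX Subgroup

/-! ## elements of order three of a simple group of order 360 are inverted -/

theorem inv_six (x : Equiv.Perm (Fin 6)) (hx : orderOf x = 3) :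
    ∃ g : Equiv.Perm (Fin 6), Equiv.Perm.sign g = 1 ∧ g * x * g⁻¹ = x⁻¹ := by
  obtain ⟨n, hn⟩ := Equiv.Perm.cycleType_prime_order (σ := x) (by rw [hx]; norm_num)
  have hs := Equiv.Perm.sum_cycleType x
  rw [hn, hx, Multiset.sum_replicate, smul_eq_mul] at hs
  have hle : x.support.card ≤ 6 := (Finset.card_le_univ _).trans (by simp)
  have key : ∀ x0 : Equiv.Perm (Fin 6), orderOf x0 = 3 → x0.support.card = x.support.card →
      (Equiv.swap 0 1 * Equiv.swap 3 4 : Equiv.Perm (Fin 6)) * x0 * (Equiv.swap 0 1 * Equiv.swap 3 4)⁻¹ = x0⁻¹ →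
      ∃ g : Equiv.Perm (Fin 6), Equiv.Perm.sign g = 1 ∧ g * x * g⁻¹ = x⁻¹ := by
    intro x0 h0 h1 h2
    obtain ⟨m, hm⟩ := Equiv.Perm.cycleType_prime_order (σ := x0) (by rw [h0]; norm_num)
    have hs0 := Equiv.Perm.sum_cycleType x0
    rw [hm, h0, Multiset.sum_replicate, smul_eq_mul] at hs0
    have hmn : m = n := by omega
    have h3 : x0.cycleType = x.cycleType := by rw [hm, hn, h0, hx, hmn]
    obtain ⟨u, hu⟩ := isConj_iff.1 (Equiv.Perm.isConj_iff_cycleType_eq.2 h3)
    refine ⟨u * (Equiv.swap 0 1 * Equiv.swap 3 4) * u⁻¹, ?_, ?_⟩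
    · have e : Equiv.Perm.sign (Equiv.swap 0 1 * Equiv.swap 3 4 : Equiv.Perm (Fin 6)) = 1 := by decide
      rw [Equiv.Perm.sign_mul, Equiv.Perm.sign_mul, e, mul_one, ← Equiv.Perm.sign_mul, mul_inv_cancel, Equiv.Perm.sign_one]
    · rw [← hu]
      have e2 : u * (Equiv.swap 0 1 * Equiv.swap 3 4) * u⁻¹ * (u * x0 * u⁻¹) * (u * (Equiv.swap 0 1 * Equiv.swap 3 4) * u⁻¹)⁻¹ =
          u * ((Equiv.swap 0 1 * Equiv.swap 3 4 : Equiv.Perm (Fin 6)) * x0 * (Equiv.swap 0 1 * Equiv.swap 3 4)⁻¹) * u⁻¹ := by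
        group
      rw [e2, h2]
      group
  have hn1 : n = 0 ∨ n = 1 := by omega
  have : Fact (Nat.Prime 3) := ⟨Nat.prime_three⟩
  rcases hn1 with rfl | rfl
  · refine key (Equiv.swap 0 1 * Equiv.swap 1 2) (orderOf_eq_prime (by decide) (by decide)) ?_ (by decide)
    rw [← hs]
    decide
  · refine key (Equiv.swap 0 1 * Equiv.swap 1 2 * (Equiv.swap 3 4 * Equiv.swap 4 5)) (orderOf_eq_prime (by decide) (by decide)) ?_
      (by decide)
    rw [← hs]
    decide

theorem inv_360 {S : Type*} [Group S] [Finite S] [IsSimpleGroup S] (h : Nat.card S = 360) {x : S} (hx : orderOf x = 3) :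
    ∃ g : S, g * x * g⁻¹ = x⁻¹ := by
  obtain ⟨e⟩ := Cfsg.Agent.S0497.result h
  have h1 : orderOf ((e x : alternatingGroup (Fin 6)) : Equiv.Perm (Fin 6)) = 3 := by
    rw [Subgroup.orderOf_coe, e.orderOf_eq, hx]
  obtain ⟨g, hg, hgx⟩ := inv_six _ h1
  refine ⟨e.symm ⟨g, Equiv.Perm.mem_alternatingGroup.2 hg⟩, e.injective ?_⟩
  rw [map_mul, map_mul, map_inv, map_inv, e.apply_symm_apply]
  exact Subtype.ext hgx

theorem index_le_twenty {Y : Type*} [Group Y] [Finite Y] {X : Subgroup Y} [hXn : X.Normal] (hX : X ≤ center Y)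
    (h3 : ¬ 3 ∣ Nat.card X) (hS : IsSimpleGroup (Y ⧸ X)) (h : Nat.card (Y ⧸ X) = 360) {P : Subgroup Y}
    (hP : Nat.card P = 9) {x : Y} (hxP : x ∈ P) (hx : orderOf x = 3) :
    (normalizer ((zpowers x : Subgroup Y) : Set Y)).index ≤ 20 := by
  have : Fact (Nat.Prime 3) := ⟨Nat.prime_three⟩
  set C := centralizer ({x} : Set Y) with hC
  set N := normalizer ((zpowers x : Subgroup Y) : Set Y) with hN
  have hx3 : x ^ 3 = 1 := by rw [← hx]; exact pow_orderOf_eq_one x
  have hcopr : (Nat.card X).Coprime 9 := by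
    have : (9 : ℕ) = 3 ^ 2 := by norm_num
    rw [this]
    exact Nat.Coprime.pow_right 2 ((Nat.Prime.coprime_iff_not_dvd Nat.prime_three).2 h3).symm
  have h1 : X ≤ C := by
    intro y hy
    rw [hC, mem_centralizer_singleton_iff]
    exact (mem_center_iff.1 (hX hy) x).symm
  have h2 : P ≤ C := by
    intro y hy
    rw [hC, mem_centralizer_singleton_iff]
    have := IsPGroup.commutative_of_card_eq_prime_sq (p := 3) (G := P) (by rw [hP]; norm_num) ⟨y, hy⟩ ⟨x, hxP⟩
    exact congrArg Subtype.val this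
  have h4 : Nat.card X * 9 ≤ Nat.card C := by
    refine Nat.le_of_dvd Nat.card_pos (hcopr.mul_dvd_of_dvd_of_dvd (card_dvd_of_le h1) ?_)
    rw [← hP]
    exact card_dvd_of_le h2
  -- the inverting element
  have hxX : x ∉ X := by
    intro hxX
    apply h3
    have := orderOf_dvd_natCard (⟨x, hxX⟩ : X)
    rwa [Subgroup.orderOf_mk, hx] at this
  have hxS : orderOf (QuotientGroup.mk x : Y ⧸ X) = 3 := by
    refine orderOf_eq_prime ?_ ?_
    · rw [← QuotientGroup.mk_pow, hx3]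
      rfl
    · intro h5
      exact hxX ((QuotientGroup.eq_one_iff x).1 h5)
  obtain ⟨g', hg'⟩ := inv_360 h hxS
  obtain ⟨g, rfl⟩ := QuotientGroup.mk_surjective g'
  have hz : g * x * g⁻¹ * x ∈ X := by
    rw [← QuotientGroup.eq_one_iff]
    have : (QuotientGroup.mk (g * x * g⁻¹ * x) : Y ⧸ X) = (QuotientGroup.mk g * QuotientGroup.mk x * (QuotientGroup.mk g)⁻¹) *
      QuotientGroup.mk x := rfl
    rw [this, hg', inv_mul_cancel]
  have hinv : g * x * g⁻¹ = x⁻¹ := by
    obtain ⟨z, hz1⟩ : ∃ z, z = g * x * g⁻¹ * x := ⟨_, rfl⟩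
    rw [← hz1] at hz
    have hzc := mem_center_iff.1 (hX hz)
    have e1 : g * x * g⁻¹ = z * x⁻¹ := by rw [hz1, mul_inv_cancel_right]
    have e2 : (z * x⁻¹) ^ 3 = 1 := by
      rw [← e1, conj_pow, hx3, mul_one, mul_inv_cancel]
    have e3 : Commute z x⁻¹ := (hzc x⁻¹).symm
    rw [e3.mul_pow, inv_pow, hx3, inv_one, mul_one] at e2
    have e4 : z = 1 := by
      by_contra hne
      apply h3
      have e5 := orderOf_dvd_natCard (⟨z, hz⟩ : X)
      rwa [Subgroup.orderOf_mk, orderOf_eq_prime e2 hne] at e5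
    rw [e1, e4, one_mul]
  have hgN : g ∈ N := by
    rw [hN, mem_normalizer_iff]
    intro y
    constructor
    · rintro ⟨k, rfl⟩
      refine ⟨-k, ?_⟩
      simp only
      rw [← conj_zpow, hinv, inv_zpow, zpow_neg]
    · rintro ⟨k, hk⟩
      refine ⟨-k, ?_⟩
      simp only at hk ⊢
      have e6 : y = g⁻¹ * (g * y * g⁻¹) * g := by group
      rw [e6, ← hk]
      have e7 : g⁻¹ * x ^ k * g = (g⁻¹ * x * g) ^ k := by
        have := conj_zpow (i := k) (a := g⁻¹) (b := x)
        rw [inv_inv] at this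
        exact this.symm
      have e8 : g⁻¹ * x * g = x⁻¹ := by
        have := congrArg (fun w => g⁻¹ * w⁻¹ * g) hinv
        simp only [inv_inv] at this
        rw [← this]
        group
      rw [e7, e8, inv_zpow, zpow_neg]
  have hCN : C ≤ N := by
    rw [hC, hN, zpowers_eq_closure, ← centralizer_closure]
    exact centralizer_le_normalizer _
  have hgC : g ∉ C := by
    intro hgC
    rw [hC, mem_centralizer_singleton_iff] at hgC
    rw [hgC, mul_inv_cancel_right] at hinv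
    have h5 : x ^ 2 = 1 := by
      rw [pow_two]
      nth_rw 1 [hinv]
      exact inv_mul_cancel x
    have h6 := orderOf_dvd_of_pow_eq_one h5
    rw [hx] at h6
    norm_num at h6
  have h5 : 2 * Nat.card C ≤ Nat.card N := by
    obtain ⟨c, hc⟩ := card_dvd_of_le hCN
    have hc0 : c ≠ 0 := by
      rintro rfl
      rw [mul_zero] at hc
      exact Nat.card_pos.ne' hc
    have hc1 : c ≠ 1 := by
      rintro rfl
      rw [mul_one] at hc
      have := Subgroup.eq_of_le_of_card_ge hCN hc.le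
      exact hgC (by rw [this]; exact hgN)
    rw [hc, mul_comm]
    exact Nat.mul_le_mul_left _ (by omega)
  have h6 := N.card_mul_index
  have h7 := X.card_mul_index
  rw [Subgroup.index_eq_card, h] at h7
  have hXpos : 0 < Nat.card X := Nat.card_pos
  have h8 : Nat.card X * (18 * N.index) ≤ Nat.card X * 360 := by
    rw [h7, ← h6]
    calc Nat.card X * (18 * N.index) = 2 * (Nat.card X * 9) * N.index := by ring
      _ ≤ Nat.card N * N.index := Nat.mul_le_mul_right _ ((Nat.mul_le_mul_left 2 h4).trans h5)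
  have h9 := Nat.le_of_mul_le_mul_left h8 hXpos
  omega

/-! ## counting -/

section cnt

variable {U : Type*} [AddCommGroup U] [Finite U]

/-- a subgroup on which the alternating form is nondegenerate has square order -/
theorem card_sq_of_nd (hexp : ∀ u : U, 2 • u = 0) {B : U → U → ZMod 2} (addl : ∀ u v w : U, B (u + v) w = B u w + B v w)
    (addr : ∀ u v w : U, B u (v + w) = B u v + B u w) (alt : ∀ u : U, B u u = 0) (C : AddSubgroup U)
    (nd : ∀ u ∈ C, (∀ v ∈ C, B u v = 0) → u = 0) : ∃ k : ℕ, Nat.card C = 4 ^ k := by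
  have : Fact (Nat.Prime 2) := ⟨Nat.prime_two⟩
  let M : Module (ZMod 2) C := AddCommGroup.zmodModule (n := 2) (fun c => Subtype.ext (hexp c))
  have smr : ∀ (c : ZMod 2) (u v : C), B u ((c • v : C) : U) = c • B u v := fun c u v =>
    ZMod.map_smul (AddMonoidHom.mk' (fun w : C => B (u : U) (w : U)) (fun a b => addr u a b)) c v
  have sml : ∀ (c : ZMod 2) (u v : C), B ((c • u : C) : U) v = c • B u v := fun c u v =>
    ZMod.map_smul (AddMonoidHom.mk' (fun w : C => B (w : U) (v : U)) (fun a b => addl a b v)) c u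
  let B' : LinearMap.BilinForm (ZMod 2) C := LinearMap.mk₂ (ZMod 2) (fun u v : C => B u v) (fun a b v => addl a b v) sml
    (fun u a b => addr u a b) smr
  have h1 := Cfsg.Agent.H727.GW.even_finrank _ C B' (fun x => alt x) (fun x hx => Subtype.ext (nd x x.2 fun v hv => hx ⟨v, hv⟩)) rfl
  obtain ⟨k, hk⟩ := h1
  refine ⟨k, ?_⟩
  rw [Module.natCard_eq_pow_finrank (K := ZMod 2) (V := C), Nat.card_zmod, hk, pow_add, ← mul_pow]
  norm_num

/-- the zeros of `q` outside `T^⊥` -/
theorem card_out (hexp : ∀ u : U, 2 • u = 0) {B : U → U → ZMod 2} (addl : ∀ u v w : U, B (u + v) w = B u w + B v w)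
    {q : U → ZMod 2} (hq : ∀ u v, q (u + v) = q u + q v + B u v) (T : AddSubgroup U)
    (hiso : ∀ u ∈ T, ∀ v ∈ T, B u v = 0) (hqT : ∀ t ∈ T, q t = 0) :
    Nat.card {u : U // ¬ (∀ t ∈ T, B u t = 0) ∧ q u = 0} = Nat.card {u : U // ¬ (∀ t ∈ T, B u t = 0) ∧ ¬ q u = 0} := by
  classical
  let τ : (T → ZMod 2) → U := fun f => if h : ∃ t : T, f t = 1 then (h.choose : U) else 0
  have hτT : ∀ f, τ f ∈ T := by
    intro f
    simp only [τ]
    split_ifs with h
    · exact h.choose.2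
    · exact T.zero_mem
  let φ : U → T → ZMod 2 := fun u t => B u t
  let σ : U → U := fun u => u + τ (φ u)
  have hφ : ∀ u, φ (σ u) = φ u := by
    intro u
    funext t
    show B (u + τ (φ u)) t = B u t
    rw [addl, hiso _ (hτT _) _ t.2, add_zero]
  have hσσ : ∀ u, σ (σ u) = u := by
    intro u
    show σ u + τ (φ (σ u)) = u
    rw [hφ]
    show u + τ (φ u) + τ (φ u) = u
    rw [add_assoc, ← two_nsmul, hexp, add_zero]
  have hout : ∀ u, ¬ (∀ t ∈ T, B u t = 0) → ¬ (∀ t ∈ T, B (σ u) t = 0) := by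
    intro u hu h
    apply hu
    intro t ht
    have := congrFun (hφ u) ⟨t, ht⟩
    rw [← h t ht]
    exact this.symm
  have h01 : ∀ a : ZMod 2, a ≠ 0 → a = 1 := by decide
  have hqσ : ∀ u, ¬ (∀ t ∈ T, B u t = 0) → q (σ u) = q u + 1 := by
    intro u hu
    push Not at hu
    obtain ⟨t, ht, htu⟩ := hu
    have hex : ∃ t : T, φ u t = 1 := ⟨⟨t, ht⟩, h01 _ htu⟩
    have h1 : B u (τ (φ u)) = 1 := by
      simp only [τ]
      rw [dif_pos hex]
      exact hex.choose_spec
    show q (u + τ (φ u)) = _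
    rw [hq, hqT _ (hτT _), h1, add_zero]
  have ha : ∀ a : ZMod 2, a = 0 → ¬ a + 1 = 0 := by decide
  have hb : ∀ a : ZMod 2, ¬ a = 0 → a + 1 = 0 := by decide
  exact Nat.card_congr
    ⟨fun u => ⟨σ u, hout _ u.2.1, by rw [hqσ _ u.2.1]; exact ha _ u.2.2⟩,
     fun u => ⟨σ u, hout _ u.2.1, by rw [hqσ _ u.2.1]; exact hb _ u.2.2⟩,
     fun u => Subtype.ext (hσσ _), fun u => Subtype.ext (hσσ _)⟩

theorem card_split_pred' {α : Type*} [Finite α] (p : α → Prop) :
    Nat.card α = Nat.card {u // p u} + Nat.card {u // ¬ p u} := by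
  classical
  rw [← Nat.card_sum]
  exact Nat.card_congr (Equiv.sumCompl p).symm

theorem card_split_pred (p : U → Prop) : Nat.card U = Nat.card {u // p u} + Nat.card {u // ¬ p u} := card_split_pred' p

theorem card_and (p r : U → Prop) :
    Nat.card {u // p u} = Nat.card {u // p u ∧ r u} + Nat.card {u // p u ∧ ¬ r u} := by
  classical
  rw [card_split_pred' (fun x : {u // p u} => r x)]
  congr 1
  · exact Nat.card_congr (Equiv.subtypeSubtypeEquivSubtypeInter p r)
  · exact Nat.card_congr (Equiv.subtypeSubtypeEquivSubtypeInter p fun u => ¬ r u)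

/-- the zeros of a form of minus type -/
theorem card_zero (hexp : ∀ u : U, 2 • u = 0) {B : U → U → ZMod 2} (addl : ∀ u v w : U, B (u + v) w = B u w + B v w)
    {q : U → ZMod 2} (hq : ∀ u v, q (u + v) = q u + q v + B u v) (T : AddSubgroup U)
    (hiso : ∀ u ∈ T, ∀ v ∈ T, B u v = 0) (hqT : ∀ t ∈ T, q t = 0)
    (h1 : ∀ u, (∀ t ∈ T, B u t = 0) → u ∉ T → q u = 1) (hU : Nat.card U = 64) (hT : Nat.card T = 4)
    (hP : Nat.card {u : U // ∀ t ∈ T, B u t = 0} = 16) : Nat.card {u : U // q u = 0} = 28 := by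
  have e1 := card_split_pred (fun u : U => ∀ t ∈ T, B u t = 0)
  have e2 := card_and (fun u : U => ¬ ∀ t ∈ T, B u t = 0) (fun u => q u = 0)
  have e3 := card_out hexp addl hq T hiso hqT
  have e4 := card_and (fun u : U => q u = 0) (fun u => ∀ t ∈ T, B u t = 0)
  have e5 : Nat.card {u : U // q u = 0 ∧ ∀ t ∈ T, B u t = 0} = Nat.card T := by
    refine Nat.card_congr (Equiv.subtypeEquivRight fun u => ⟨fun h => ?_, fun h => ⟨hqT u h, hiso u h⟩⟩)
    by_contra hu
    have := h1 u h.2 hu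
    rw [h.1] at this
    exact zero_ne_one this
  have e6 : Nat.card {u : U // q u = 0 ∧ ¬ ∀ t ∈ T, B u t = 0} = Nat.card {u : U // (¬ ∀ t ∈ T, B u t = 0) ∧ q u = 0} :=
    Nat.card_congr (Equiv.subtypeEquivRight fun u => and_comm)
  rw [hU, hP] at e1
  rw [e5, e6, hT] at e4
  omega

end cnt

end Cfsg.Agent.H473.RIM
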