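import Cfsg.Agent.H473.RIM.Kill3p
import Cfsg.Agent.H586.NX.NotNine
import Cfsg.Agent.H610.NX.XCentral

/-!
# S4816, layer (B), `p = 3`, box K3 (helper473): final form
-/

set_option autoImplicit false

namespace Cfsg.Agent.H473.RIM

open Cfsg Cfsg.Agent.OrdDiv Cfsg.Agent.H20.RIM

universe v w

theorem cardMinus : CardMinus.{v} := by
  intro S _ _ _ hna hd
  obtain ⟨g, hg, -, hcard⟩ := exists_good table (S := S) Cfsg.Agent.S0000.result
    (fun h => hna ⟨⟨h⟩⟩) (l := [(2, 9), (3, 2), (5, 1)])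
    (N := 2 ^ 9 * 3 ^ 2 * 5)
    (by decide +kernel) hd
  have hj : ((cands [(2, 9), (3, 2), (5, 1)]
      (2 ^ 9 * 3 ^ 2 * 5)).map ordN).all
      (fun o => o == 60 || o == 360) = true := by
    decide +kernel
  rw [List.all_eq_true] at hj
  have hj' := hj _ (List.mem_map.2 ⟨g, hg, rfl⟩)
  rw [← hcard] at hj'
  simp only [Bool.or_eq_true, beq_iff_eq] at hj'
  exact hj'

/-- **K3** -/
theorem kill3 {r : ℕ} {Y : Type v} {U : Type w} [Group Y] [Finite Y] [AddCommGroup U] [Finite U] [DistribMulAction Y U]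
    {X : Subgroup Y} {B : U → U → ZMod 2} (A : AS (U := U) r 3 3 X B) : Sm X :=
  kill3' A (Cfsg.Agent.H610.NX.X_central A.S (by norm_num)) Cfsg.Agent.H586.NX.card_of_not_nine cardMinus

end Cfsg.Agent.H473.RIM
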