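import Cfsg.Agent.H20.RIM.AS
import Cfsg.Agent.H473.RIM.K3a

/-!
# S4816, layer (B), `p = 3`, box K3 (helper473): `AS r 3 3 X B → Sm X`

`kill3'` : the facts on orders of simple groups and the centrality of `X` are hypotheses; `kill3` is in `Kill3.lean`.
-/

set_option autoImplicit false
set_option linter.unusedSectionVars false

namespace Cfsg.Agent.H473.RIM

open Cfsg.Agent.H586.NX Cfsg.Agent.H20.RIM Subgroup
open Cfsg.Agent.H473.NX (fixT card_fix_mod actT)

universe v w

/-- simple groups of order prime to `9` -/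
def CardNotNine : Prop := ∀ {S : Type v} [Group S] [Finite S] [IsSimpleGroup S], ¬ IsMulCommutative S →
    3 ∣ Nat.card S → ¬ 9 ∣ Nat.card S → Nat.card S ∣ 2 ^ 25 * 3 ^ 6 * 5 ^ 2 * 7 * 11 * 17 * 31 →
    Nat.card S = 60 ∨ Nat.card S = 168 ∨ Nat.card S = 660 ∨ Nat.card S = 4080 ∨ Nat.card S = 14880 ∨
      Nat.card S = 32736

/-- simple groups of order dividing `2 ^ 9 * 3 ^ 2 * 5` -/
def CardMinus : Prop := ∀ {S : Type v} [Group S] [Finite S] [IsSimpleGroup S], ¬ IsMulCommutative S →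
    Nat.card S ∣ 2 ^ 9 * 3 ^ 2 * 5 → Nat.card S = 60 ∨ Nat.card S = 360

section main

variable {r : ℕ} {Y U : Type*} [Group Y] [Finite Y] [AddCommGroup U] [Finite U] [DistribMulAction Y U]
  {X : Subgroup Y} {B : U → U → ZMod 2}

theorem card_U (S : SX (U := U) 3 r 2 3 X B) : Nat.card U = 64 := by
  rw [S.card]
  norm_num

theorem dvd_Y (S : SX (U := U) 3 r 2 3 X B) : Nat.card Y ∣ 1451520 := by
  have h := Cfsg.Agent.H586.NX.card_dvd S
  have e : Cfsg.Agent.H37.NW.P 2 3 = 1451520 := by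
    unfold Cfsg.Agent.H37.NW.P
    simp [Finset.prod_range_succ]
  rwa [e] at h

theorem triv_card (S : SX (U := U) 3 r 2 3 X B) {T : AddSubgroup U} (hT : Nat.card T = 4)
    (hiso : ∀ u ∈ T, ∀ v ∈ T, B u v = 0) {x : Y} (hx : orderOf x = 3) (ht : ∀ t ∈ T, x • t = t) :
    Nat.card {u : U // x • u = u} = 16 := by
  obtain ⟨j, j1, j2, j3, -⟩ := exists_fix S hx
  have h1 := card_sq_le S hx T hiso ht
  rw [hT, j3] at h1
  interval_cases j
  · rw [j3]
    norm_num
  · norm_num at h1
  · norm_num at h1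

theorem no_triv_eight (S : SX (U := U) 3 r 2 3 X B) {T : AddSubgroup U} (hT : Nat.card T = 8)
    (hiso : ∀ u ∈ T, ∀ v ∈ T, B u v = 0) {x : Y} (hx : orderOf x = 3) (ht : ∀ t ∈ T, x • t = t) : False := by
  obtain ⟨j, j1, j2, j3, -⟩ := exists_fix S hx
  have h1 := card_sq_le S hx T hiso ht
  rw [hT, j3] at h1
  interval_cases j <;> norm_num at h1

/-- a group of elements trivial on `T`, `|T| = 4` -/
theorem ker_not_nine (S : SX (U := U) 3 r 2 3 X B) {T : AddSubgroup U} (hT : Nat.card T = 4)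
    (hiso : ∀ u ∈ T, ∀ v ∈ T, B u v = 0) {G : Type*} [Group G] [Finite G] (f : G →* Y) (hf : Function.Injective f)
    (ht : ∀ g : G, ∀ t ∈ T, f g • t = t) : ¬ 9 ∣ Nat.card G := by
  intro h9
  have key : ∀ g : G, orderOf g = 3 → Nat.card {u : U // f g • u = u} = 16 := fun g hg =>
    triv_card S hT hiso (by rw [orderOf_injective f hf, hg]) (ht g)
  obtain ⟨A, -, ⟨y, -, hy⟩ | ⟨x, -, y, -, hx, hy, hxy, hne⟩⟩ := H994.NX.nine_cases h9
  · obtain ⟨m, hm⟩ := H994.NX.order_nine (U := U) S.exp (f y) (by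
      rw [← map_pow, ← hy, pow_orderOf_eq_one, map_one])
    have ho : orderOf (y ^ 3) = 3 := by
      rw [orderOf_pow, hy]
      norm_num
    rw [← map_pow, key _ ho, card_U S] at hm
    rcases m with _ | m
    · norm_num at hm
    · have h2 : 1 ≤ 64 ^ m := Nat.one_le_pow _ _ (by norm_num)
      rw [pow_succ] at hm
      omega
  · obtain ⟨o1, o2⟩ := H994.NX.order_prod hx hy hxy hne
    have hw := H994.NX.wielandt (U := U) S.exp (f x) (f y) (by rw [orderOf_injective f hf, hx])
      (by rw [orderOf_injective f hf, hy]) (by rw [← map_mul, hxy, map_mul]) (by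
        rintro ⟨k, hk⟩
        apply hne
        refine ⟨k, hf ?_⟩
        rw [← hk]
        exact map_zpow f x k)
    rw [← map_inv, ← map_mul, ← map_mul, key x hx, key y hy, key _ o1, key _ o2, card_U S] at hw
    obtain ⟨k, hk⟩ := H994.NX.card_common_pow (U := U) S.exp (f x) (f y)
    rw [hk] at hw
    have h2 : (2 : ℕ) ^ 16 = 2 ^ (6 + k * 3) := by
      rw [pow_add, pow_mul 2 k 3]
      norm_num at hw ⊢
      exact hw
    have h3 := Nat.pow_right_injective (le_refl 2) h2
    omega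

/-- the restricted action -/
@[instance_reducible]
def dact (M : Subgroup Y) (T : AddSubgroup U) (h : ∀ m ∈ M, ∀ t ∈ T, m • t ∈ T) : DistribMulAction M T where
  smul m t := ⟨(m : Y) • (t : U), h m m.2 t t.2⟩
  one_smul t := Subtype.ext (one_smul Y (t : U))
  mul_smul a b t := Subtype.ext (mul_smul (a : Y) (b : Y) (t : U))
  smul_zero a := Subtype.ext (smul_zero (a : Y))
  smul_add a s t := Subtype.ext (smul_add (a : Y) (s : U) (t : U))

/-- `|T| = 8`: the Sylow subgroup has order `3` -/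
theorem not_nine_of_eight (S : SX (U := U) 3 r 2 3 X B) {T : AddSubgroup U} (hT : Nat.card T = 8)
    (hiso : ∀ u ∈ T, ∀ v ∈ T, B u v = 0) (P : Sylow 3 Y) (hP : ∀ m ∈ P, ∀ t ∈ T, m • t ∈ T) : ¬ 9 ∣ Nat.card P := by
  intro h9
  have : Fact (Nat.Prime 3) := ⟨Nat.prime_three⟩
  let D : DistribMulAction (P : Subgroup Y) T := dact (P : Subgroup Y) T hP
  have hexp : ∀ t : T, 2 • t = 0 := fun t => Subtype.ext (S.exp t)
  have key : ∀ g : (P : Subgroup Y), orderOf g = 3 → Nat.card {t : T // g • t = t} = 2 := by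
    intro g hg
    obtain ⟨V, hV⟩ : ∃ V : AddSubgroup T, ∀ t : T, t ∈ V ↔ g • t = t :=
      ⟨{ carrier := {t | g • t = t}
         zero_mem' := smul_zero g
         add_mem' := fun {a b} ha hb => by
          show g • (a + b) = a + b
          rw [smul_add, show g • a = a from ha, show g • b = b from hb]
         neg_mem' := fun {a} ha => by
          show g • (-a) = -a
          rw [smul_neg, show g • a = a from ha] }, fun t => Iff.rfl⟩
    have e1 : Nat.card {t : T // g • t = t} = Nat.card V :=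
      Nat.card_congr (Equiv.subtypeEquivRight fun t => (hV t).symm)
    have e2 : Nat.card V ∣ 8 := by
      rw [← hT]
      exact V.card_addSubgroup_dvd_card
    have e3 : Nat.card T ≡ Nat.card {t : T // g • t = t} [MOD 3] := by
      have hp : IsPGroup 3 (zpowers g) := IsPGroup.of_card (n := 1) (by rw [Nat.card_zpowers, hg, pow_one])
      have h1 := hp.card_modEq_card_fixedPoints T
      have h2 : Nat.card (MulAction.fixedPoints (zpowers g) T) = Nat.card {t : T // g • t = t} := by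
        refine Nat.card_congr (Equiv.subtypeEquivRight fun t => ⟨fun h => h ⟨g, mem_zpowers g⟩, fun h => ?_⟩)
        rintro ⟨_, k, rfl⟩
        exact MulAction.mem_stabilizer_iff.1 (zpow_mem (MulAction.mem_stabilizer_iff.2 h) k)
      rwa [h2] at h1
    have e4 : Nat.card V ≠ 8 := by
      intro h8
      have h1 : V = ⊤ := AddSubgroup.eq_top_of_card_eq _ (by rw [h8, hT])
      refine no_triv_eight S hT hiso (x := (g : Y)) (by rw [Subgroup.orderOf_coe, hg]) fun t ht => ?_
      have h2 : (⟨t, ht⟩ : T) ∈ V := by rw [h1]; trivial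
      exact congrArg Subtype.val ((hV _).1 h2)
    rw [e1] at e3 ⊢
    rw [hT] at e3
    have e5 : Nat.card V ≤ 8 := Nat.le_of_dvd (by norm_num) e2
    interval_cases h : Nat.card V
    all_goals first | rfl | (exfalso; revert e2 e3 e4; decide)
  obtain ⟨A, -, ⟨y, -, hy⟩ | ⟨x, -, y, -, hx, hy, hxy, hne⟩⟩ := H994.NX.nine_cases h9
  · obtain ⟨m, hm⟩ := H994.NX.order_nine (U := T) hexp y (by rw [← hy, pow_orderOf_eq_one])
    have ho : orderOf (y ^ 3) = 3 := by
      rw [orderOf_pow, hy]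
      norm_num
    rw [key _ ho, hT] at hm
    rcases m with _ | m
    · norm_num at hm
    · have h2 : 1 ≤ 64 ^ m := Nat.one_le_pow _ _ (by norm_num)
      rw [pow_succ] at hm
      omega
  · obtain ⟨o1, o2⟩ := H994.NX.order_prod hx hy hxy hne
    have hw := H994.NX.wielandt (U := T) hexp x y hx hy hxy hne
    rw [key x hx, key y hy, key _ o1, key _ o2, hT] at hw
    obtain ⟨k, hk⟩ := H994.NX.card_common_pow (U := T) hexp x y
    rw [hk] at hw
    have h2 : (2 : ℕ) ^ 4 = 2 ^ (3 + k * 3) := by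
      rw [pow_add, pow_mul 2 k 3]
      norm_num at hw ⊢
      exact hw
    have h3 := Nat.pow_right_injective (le_refl 2) h2
    omega

/-- `|T| = 4`: the Sylow subgroup has order at most `9`, and if it is `9` then some element of order `3` is trivial on `T` -/
theorem sylow_four (S : SX (U := U) 3 r 2 3 X B) {T : AddSubgroup U} (hT : Nat.card T = 4)
    (hiso : ∀ u ∈ T, ∀ v ∈ T, B u v = 0) (P : Sylow 3 Y) (hP : ∀ m ∈ P, ∀ t ∈ T, m • t ∈ T) :
    Nat.card P ∣ 9 ∧ (Nat.card P = 9 → ∃ x ∈ P, orderOf x = 3 ∧ ∀ t ∈ T, x • t = t) := by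
  have : Fact (Nat.Prime 3) := ⟨Nat.prime_three⟩
  let D : DistribMulAction (P : Subgroup Y) T := dact (P : Subgroup Y) T hP
  let f : (P : Subgroup Y) →* Equiv.Perm T := MulAction.toPermHom (P : Subgroup Y) T
  have hk : ∀ g ∈ f.ker, ∀ t ∈ T, (g : Y) • t = t := by
    intro g hg t ht
    have h1 := Equiv.congr_fun (MonoidHom.mem_ker.1 hg) ⟨t, ht⟩
    exact congrArg Subtype.val h1
  have hK9 : ¬ 9 ∣ Nat.card f.ker :=
    ker_not_nine S hT hiso ((P : Subgroup Y).subtype.comp f.ker.subtype)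
      ((P : Subgroup Y).subtype_injective.comp f.ker.subtype_injective) (fun g t ht => hk g g.2 t ht)
  have hR : Nat.card f.range ∣ 24 := by
    have h1 := Subgroup.card_subgroup_dvd_card f.range
    have h2 : Nat.card (Equiv.Perm T) = 24 := by
      rw [Nat.card_perm, hT]
      rfl
    rwa [h2] at h1
  have hc : Nat.card (P : Subgroup Y) = Nat.card f.ker * Nat.card f.range := by
    rw [← f.ker.card_mul_index, Subgroup.index_ker]
  obtain ⟨a, ha⟩ := IsPGroup.iff_card.1 (P.isPGroup'.to_subgroup f.ker)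
  obtain ⟨b, hb⟩ := IsPGroup.iff_card.1 (P.isPGroup'.of_surjective f.rangeRestrict f.rangeRestrict_surjective)
  have ha1 : a ≤ 1 := by
    by_contra h
    apply hK9
    rw [ha]
    exact (by norm_num : (9 : ℕ) = 3 ^ 2) ▸ pow_dvd_pow 3 (by omega)
  have hb1 : b ≤ 1 := by
    by_contra h
    rw [hb] at hR
    have h1 : 3 ^ 2 ∣ 24 := (pow_dvd_pow 3 (by omega : 2 ≤ b)).trans hR
    norm_num at h1
  have hcP : Nat.card P = 3 ^ a * 3 ^ b := by rw [← ha, ← hb]; exact hc
  refine ⟨?_, fun h9 => ?_⟩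
  · rw [hcP, ← pow_add]
    exact (by norm_num : (9 : ℕ) = 3 ^ 2) ▸ pow_dvd_pow 3 (by omega)
  · have ha' : a = 1 := by
      rw [h9, ← pow_add] at hcP
      have h1 : (3 : ℕ) ^ 2 = 3 ^ (a + b) := by rw [← hcP]; norm_num
      have h2 := Nat.pow_right_injective (by norm_num : 2 ≤ 3) h1
      omega
    have h3 : 3 ∣ Nat.card f.ker := by rw [ha, ha', pow_one]
    obtain ⟨x, hx⟩ := exists_prime_orderOf_dvd_card' 3 h3
    refine ⟨((x : (P : Subgroup Y)) : Y), (x : (P : Subgroup Y)).2, ?_, hk x x.2⟩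
    rw [Subgroup.orderOf_coe, Subgroup.orderOf_coe, hx]

theorem sum_smul_fix {y : Y} (hy : y ^ 7 = 1) (v : U) : y • (∑ k ∈ Finset.range 7, y ^ k • v) = ∑ k ∈ Finset.range 7, y ^ k • v := by
  rw [Finset.smul_sum]
  have h1 : ∀ k ∈ Finset.range 7, y • y ^ k • v = y ^ (k + 1) • v := fun k _ => by rw [← mul_smul, ← pow_succ']
  rw [Finset.sum_congr rfl h1, Finset.sum_range_succ (fun k => y ^ (k + 1) • v) 6, hy,
    Finset.sum_range_succ' (fun k => y ^ k • v) 6, pow_zero]

/-- no elements of order `7` for a form of minus type -/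
theorem not_seven (S : SX (U := U) 3 r 2 3 X B) {q : U → ZMod 2} (hq : ∀ u v, q (u + v) = q u + q v + B u v)
    (hqY : ∀ (y : Y) (u : U), q (y • u) = q u) (T : AddSubgroup U) (hT : Nat.card T = 4)
    (hiso : ∀ u ∈ T, ∀ v ∈ T, B u v = 0) (hqT : ∀ t ∈ T, q t = 0)
    (hq1 : ∀ u, (∀ t ∈ T, B u t = 0) → u ∉ T → q u = 1) : ¬ 7 ∣ Nat.card Y := by
  intro h7
  have : Fact (Nat.Prime 7) := ⟨by norm_num⟩
  obtain ⟨y, hy⟩ := exists_prime_orderOf_dvd_card' 7 h7
  have hy7 : y ^ 7 = 1 := by rw [← hy]; exact pow_orderOf_eq_one y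
  have hp : IsPGroup 7 (zpowers y) := IsPGroup.of_card (n := 1) (by rw [Nat.card_zpowers, hy, pow_one])
  have hz : Nat.card {u : U // q u = 0} = 28 :=
    card_zero S.exp S.addl hq T hiso hqT hq1 (card_U S) hT (H921.NX.card_perp S (T := T) (i := 2) (by rw [hT]; norm_num) (by norm_num))
  have hfixz : ∀ u : U, y • u = u → ∀ m : zpowers y, (m : Y) • u = u := by
    rintro u hu ⟨_, k, rfl⟩
    exact MulAction.mem_stabilizer_iff.1 (zpow_mem (MulAction.mem_stabilizer_iff.2 hu) k)
  -- the fixed space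
  obtain ⟨C, hC⟩ : ∃ C : AddSubgroup U, ∀ t : U, t ∈ C ↔ y • t = t :=
    ⟨{ carrier := {t | y • t = t}
       zero_mem' := smul_zero y
       add_mem' := fun {a b} ha hb => by
        show y • (a + b) = a + b
        rw [smul_add, show y • a = a from ha, show y • b = b from hb]
       neg_mem' := fun {a} ha => by
        show y • (-a) = -a
        rw [smul_neg, show y • a = a from ha] }, fun t => Iff.rfl⟩
  have e1 : Nat.card U ≡ Nat.card C [MOD 7] := by
    have h1 := hp.card_modEq_card_fixedPoints U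
    have h2 : Nat.card (MulAction.fixedPoints (zpowers y) U) = Nat.card C :=
      Nat.card_congr (Equiv.subtypeEquivRight fun t => ⟨fun h => (hC t).2 (h ⟨y, mem_zpowers y⟩),
        fun h => hfixz t ((hC t).1 h)⟩)
    rwa [h2] at h1
  have e2 : Nat.card C ∣ 64 := by
    rw [← card_U S]
    exact C.card_addSubgroup_dvd_card
  have e3 : Nat.card C ≠ 64 := by
    intro h64
    have h1 : C = ⊤ := AddSubgroup.eq_top_of_card_eq _ (by rw [h64, card_U S])
    have h2 : y = 1 := S.faith y fun u => (hC u).1 (by rw [h1]; trivial)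
    rw [h2, orderOf_one] at hy
    norm_num at hy
  obtain ⟨k, hk⟩ := card_sq_of_nd S.exp S.addl S.addr S.alt C (fun u hu huC => S.nd u fun v => by
    have h1 : B u (∑ k ∈ Finset.range 7, y ^ k • v) = 0 := huC _ ((hC _).2 (sum_smul_fix hy7 v))
    have h2 : B u (∑ k ∈ Finset.range 7, y ^ k • v) = ∑ k ∈ Finset.range 7, B u (y ^ k • v) :=
      map_sum (AddMonoidHom.mk' (B u) (S.addr u)) _ _
    have h3 : ∀ k ∈ Finset.range 7, B u (y ^ k • v) = B u v := by
      intro k _
      have h4 : y ^ k • u = u := MulAction.mem_stabilizer_iff.1 (pow_mem (MulAction.mem_stabilizer_iff.2 ((hC u).1 hu)) k)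
      nth_rw 1 [← h4]
      exact S.inv _ _ _
    rw [h2, Finset.sum_congr rfl h3, Finset.sum_const, Finset.card_range] at h1
    have h5 : ∀ a : ZMod 2, 7 • a = 0 → a = 0 := by decide
    exact h5 _ h1)
  have hC1 : Nat.card C = 1 := by
    rw [card_U S] at e1
    rw [hk] at e1 e2 e3 ⊢
    have hk3 : k ≤ 3 := by
      by_contra h
      have h1 : 4 ^ 4 ≤ 4 ^ k := Nat.pow_le_pow_right (by norm_num) (by omega)
      have h2 := Nat.le_of_dvd (by norm_num) e2
      norm_num at h1
      omega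
    interval_cases k
    · rfl
    · exfalso; revert e1; decide
    · exfalso; revert e1; decide
    · exfalso; exact e3 (by norm_num)
  -- the zeros
  let Z : Type _ := {u : U // q u = 0}
  let A : MulAction (zpowers y) Z :=
    { smul := fun m u => ⟨(m : Y) • (u : U), by rw [hqY]; exact u.2⟩
      one_smul := fun u => Subtype.ext (one_smul Y (u : U))
      mul_smul := fun a b u => Subtype.ext (mul_smul (a : Y) (b : Y) (u : U)) }
  have h1 := hp.card_modEq_card_fixedPoints Z
  have h2 : Nat.card (MulAction.fixedPoints (zpowers y) Z) = 1 := by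
    have hs : Subsingleton C := (Nat.card_eq_one_iff_unique.1 hC1).1
    rw [Nat.card_eq_one_iff_unique]
    have h0 : q 0 = 0 := hqT 0 T.zero_mem
    have hf : ∀ z : MulAction.fixedPoints (zpowers y) Z, ((z : Z) : U) = 0 := by
      intro z
      have hz1 : ((z : Z) : U) ∈ C := (hC _).2 (congrArg Subtype.val (z.2 ⟨y, mem_zpowers y⟩))
      exact congrArg Subtype.val (hs.elim (⟨_, hz1⟩ : C) 0)
    refine ⟨⟨fun a b => Subtype.ext (Subtype.ext (by rw [hf, hf]))⟩, ⟨⟨⟨0, h0⟩, fun m => Subtype.ext (smul_zero (m : Y))⟩⟩⟩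
  rw [h2] at h1
  have h3 : Nat.card Z = 28 := hz
  rw [h3] at h1
  revert h1
  decide

theorem sm_of_card (S : SX (U := U) 3 r 2 3 X B) [X.Normal] (h : Nat.card (Y ⧸ X) = 60 ∨ Nat.card (Y ⧸ X) = 168) : Sm X := by
  have h1 := dvd_Y S
  have h2 := X.card_mul_index
  rw [Subgroup.index_eq_card] at h2
  rw [← h2] at h1
  rcases h with h | h
  · left
    refine ⟨h, ?_⟩
    rintro ⟨c, hc⟩
    rw [h, hc] at h1
    have h3 : 300 ∣ 1451520 := (Dvd.intro c (by ring)).trans h1
    norm_num at h3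
  · right
    refine ⟨h, ?_⟩
    rintro ⟨c, hc⟩
    rw [h, hc] at h1
    have h3 : 1176 ∣ 1451520 := (Dvd.intro c (by ring)).trans h1
    norm_num at h3

end main

/-- **K3** -/
theorem kill3' {r : ℕ} {Y : Type v} {U : Type w} [Group Y] [Finite Y] [AddCommGroup U] [Finite U] [DistribMulAction Y U]
    {X : Subgroup Y} {B : U → U → ZMod 2} (A : AS (U := U) r 3 3 X B) (hc : X ≤ center Y) (hN : CardNotNine.{v})
    (hM : CardMinus.{v}) : Sm X := by
  have : Fact (Nat.Prime 3) := ⟨Nat.prime_three⟩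
  have hXn := A.nX
  have hS := A.simp
  have hY := dvd_Y A.S
  have hYX := X.card_mul_index
  rw [Subgroup.index_eq_card] at hYX
  have hSY : Nat.card (Y ⧸ X) ∣ Nat.card Y := Dvd.intro_left _ hYX
  have nine : ¬ 9 ∣ Nat.card (Y ⧸ X) → Sm X := by
    intro h9
    apply sm_of_card A.S
    have h1 := hSY.trans hY
    have h2 := hN A.na A.pS h9 (h1.trans (by norm_num))
    rcases h2 with h | h | h | h | h | h
    · exact Or.inl h
    · exact Or.inr h
    all_goals
      exfalso
      rw [h] at h1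
      norm_num at h1
  obtain ⟨q, hq, hqY, P, T, i, hT, hiso, hP, hqT, hi⟩ := A.qf rfl
  have hPY : ∀ {m : ℕ}, 3 ^ m ∣ Nat.card Y → 3 ^ m ∣ Nat.card P := fun h => P.pow_dvd_card_of_pow_dvd_card h
  rcases hi with rfl | ⟨hi, hq1⟩
  · apply nine
    intro h9
    refine not_nine_of_eight A.S (by rw [hT]; norm_num) hiso P hP ?_
    have := hPY (m := 2) (by norm_num; exact h9.trans hSY)
    norm_num at this
    exact this
  · obtain rfl : i = 2 := by omega
    have hT4 : Nat.card T = 4 := by rw [hT]; norm_num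
    by_cases h9 : 9 ∣ Nat.card (Y ⧸ X)
    · exfalso
      obtain ⟨hP9, hPx⟩ := sylow_four A.S hT4 hiso P hP
      have h7 := not_seven A.S hq hqY T hT4 hiso hqT hq1
      have hP9' : Nat.card P = 9 := by
        refine Nat.dvd_antisymm hP9 ?_
        have := hPY (m := 2) (by norm_num; exact h9.trans hSY)
        norm_num at this
        exact this
      have h27 : ¬ 27 ∣ Nat.card Y := by
        intro h
        have := hPY (m := 3) (by norm_num; exact h)
        rw [hP9'] at this
        norm_num at this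
      have hd : Nat.card Y ∣ 2 ^ 9 * 3 ^ 2 * 5 := by
        have h1 : Nat.card Y ∣ 7 * (3 ^ 4 * (2 ^ 9 * 5)) := by norm_num; exact hY
        have h2 := (Nat.Coprime.dvd_of_dvd_mul_left (((Nat.Prime.coprime_iff_not_dvd (by norm_num : Nat.Prime 7)).2 h7).symm) h1)
        obtain ⟨a, b, ha, hb, hab⟩ := (Nat.dvd_mul).1 h2
        obtain ⟨c, hc4, rfl⟩ := (Nat.dvd_prime_pow Nat.prime_three).1 ha
        have hc2 : c ≤ 2 := by
          by_contra hlt
          apply h27
          rw [← hab]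
          exact ((by norm_num : (27 : ℕ) = 3 ^ 3) ▸ pow_dvd_pow 3 (by omega : 3 ≤ c)).trans (Dvd.intro _ rfl)
        rw [← hab, mul_comm (2 ^ 9) (3 ^ 2), mul_assoc]
        exact Nat.mul_dvd_mul (pow_dvd_pow 3 hc2) hb
      rcases hM A.na (hSY.trans hd) with h60 | h360
      · rw [h60] at h9
        norm_num at h9
      · obtain ⟨x, hxP, hx, hxT⟩ := hPx hP9'
        have h16 := triv_card A.S hT4 hiso hx hxT
        obtain ⟨k, hk, hcnt⟩ := A.cnt x hx 1 (by norm_num) (by rw [h16]; norm_num)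
        have h20 := index_le_twenty hc A.S.pX hS h360 (P := (P : Subgroup Y)) hP9' hxP hx
        have hk1 : k ≤ 1 := by omega
        have h1 : 3 ^ (2 ^ (3 - 1) * k) ≤ 3 ^ 4 := Nat.pow_le_pow_right (by norm_num) (by omega)
        have h2 := hcnt.trans (Nat.mul_le_mul (Nat.mul_le_mul_left (4 ^ 1) h20) h1)
        norm_num at h2
    · exact nine h9

end Cfsg.Agent.H473.RIM
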